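import Mathlib
import Cfsg.Agent.Lib.OO.BasicE

/-!
# A `2`-group lemma (case `a1` of the centraliser theorem)
-/

set_option autoImplicit false

namespace Cfsg.Agent.CE

open Subgroup Cfsg.Agent.OO
open scoped Pointwise commutatorElement

universe u

section abs

variable {P : Type u} [Group P] [Finite P] {y z : P}

theorem a1_climb (hP : IsPGroup 2 P) {H Q : Subgroup P} (h : H < Q) :
    ∃ e ∈ Q, e ∉ H ∧ e ∈ 𝐍(H) := by
  have : Fact (Nat.Prime 2) := ⟨Nat.prime_two⟩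
  have := (hP.to_subgroup Q).isNilpotent
  have h1 : H.subgroupOf Q < ⊤ := by
    rw [lt_top_iff_ne_top, Ne, subgroupOf_eq_top]; exact h.not_ge
  obtain ⟨e, he, he'⟩ := SetLike.exists_of_lt (Group.normalizerCondition_of_isNilpotent _ h1)
  refine ⟨e, e.2, he', ?_⟩
  rw [mem_normalizer_iff] at he ⊢
  intro a
  constructor
  · intro ha
    exact (he ⟨a, h.le ha⟩).1 ha
  · intro ha
    have haQ : a ∈ Q := by
      have := Q.mul_mem (Q.mul_mem (Q.inv_mem e.2) (h.le ha)) e.2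
      simpa [mul_assoc] using this
    exact (he ⟨a, haQ⟩).2 ha

/-- one step of the induction -/
theorem a1_step (hP : IsPGroup 2 P)
    (hN : ∀ g, g ∈ 𝐍(𝐂[y]) → g * y * g⁻¹ = y ∨ g * y * g⁻¹ = y * z) {d s : P} (d1 : d ≠ 1)
    (hs : s * y * s⁻¹ = y * d) (hd : y * d = d * y) :
    d = z ∨ ∃ e, e * y = y * e ∧ ⁅d⁻¹, e⁆ ≠ 1 ∧
      (s⁻¹ * e * s) * y * (s⁻¹ * e * s)⁻¹ = y * (s⁻¹ * ⁅d⁻¹, e⁆ * s) ∧
      y * (s⁻¹ * ⁅d⁻¹, e⁆ * s) = (s⁻¹ * ⁅d⁻¹, e⁆ * s) * y := by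
  by_cases hc : 𝐂[y] ≤ 𝐂[d]
  · left
    have h1 : 𝐂[y] ≤ MulAut.conj s • 𝐂[y] := fun q hq => by
      rw [mem_pointwise_smul_iff_inv_smul_mem, mem_centralizer_singleton_iff]
      have e1 := mem_centralizer_singleton_iff.1 hq
      have e2 := mem_centralizer_singleton_iff.1 (hc hq)
      have e3 : q * (s * y * s⁻¹) = (s * y * s⁻¹) * q := by
        rw [hs, ← mul_assoc, e1, mul_assoc, e2, mul_assoc]
      simp only [MulAut.smul_def, MulAut.conj_inv_apply]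
      calc s⁻¹ * q * s * y = s⁻¹ * (q * (s * y * s⁻¹)) * s := by group
        _ = _ := by rw [e3]; group
    have h2 : 𝐂[y] = MulAut.conj s • 𝐂[y] :=
      eq_of_le_of_card_ge h1 (card_conj s _).le
    have h3 : s ∈ 𝐍(𝐂[y]) := by
      rw [mem_normalizer_iff]
      intro a
      conv_rhs => rw [h2]
      rw [mem_pointwise_smul_iff_inv_smul_mem]
      simp [mul_assoc]
    rcases hN s h3 with h | h
    · exact absurd (by simpa [hs] using h) d1
    · simpa [hs] using h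
  · right
    obtain ⟨e, he, he', hn⟩ := a1_climb hP (H := 𝐂[y] ⊓ 𝐂[d]) (Q := 𝐂[y])
      (lt_of_le_of_ne inf_le_left fun h => hc (h ▸ inf_le_right))
    have e1 := mem_centralizer_singleton_iff.1 he
    have hdm : d ∈ 𝐂[y] ⊓ 𝐂[d] :=
      ⟨mem_centralizer_singleton_iff.2 hd.symm, mem_centralizer_singleton_iff.2 rfl⟩
    have hde := (mem_normalizer_iff.1 hn d).1 hdm
    have c1 : Commute (e * d * e⁻¹) y := mem_centralizer_singleton_iff.1 hde.1
    have c2 : Commute (e * d * e⁻¹) d := mem_centralizer_singleton_iff.1 hde.2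
    have c3 : Commute d y := hd.symm
    have k : ⁅d⁻¹, e⁆ = d⁻¹ * (e * d * e⁻¹) := by rw [commutatorElement_def]; group
    have hy : y = s⁻¹ * (y * d) * s := by rw [← hs]; group
    have c4 : Commute (y * d) ⁅d⁻¹, e⁆ := by
      rw [k]
      exact Commute.mul_left (c3.symm.inv_right.mul_right c1.symm)
        ((Commute.refl d).inv_right.mul_right c2.symm)
    refine ⟨e, e1, fun h => he' ⟨he, mem_centralizer_singleton_iff.2 ?_⟩, ?_, ?_⟩
    · exact ((Commute.inv_left_iff.1 (commutatorElement_eq_one_iff_commute.1 h)).symm : Commute e d)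
    · have e4 : e * y * e⁻¹ = y := by rw [e1]; group
      calc (s⁻¹ * e * s) * y * (s⁻¹ * e * s)⁻¹ = s⁻¹ * (e * (s * y * s⁻¹) * e⁻¹) * s := by group
        _ = s⁻¹ * ((e * y * e⁻¹) * (e * d * e⁻¹)) * s := by rw [hs]; group
        _ = s⁻¹ * (y * d) * s * (s⁻¹ * ⁅d⁻¹, e⁆ * s) := by rw [e4, k]; group
        _ = _ := by rw [← hy]
    · calc y * (s⁻¹ * ⁅d⁻¹, e⁆ * s) = s⁻¹ * (y * d) * s * (s⁻¹ * ⁅d⁻¹, e⁆ * s) := by rw [← hy]
        _ = s⁻¹ * ((y * d) * ⁅d⁻¹, e⁆) * s := by group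
        _ = (s⁻¹ * ⁅d⁻¹, e⁆ * s) * (s⁻¹ * (y * d) * s) := by rw [c4.eq]; group
        _ = _ := by rw [← hy]

theorem a1_mem {n : ℕ} {d : P} (hd : d ∈ Subgroup.upperCentralSeries P (n + 1)) (e s : P) :
    s⁻¹ * ⁅d⁻¹, e⁆ * s ∈ Subgroup.upperCentralSeries P n := by
  have := (inferInstance : (Subgroup.upperCentralSeries P n).Normal).conj_mem _
    (Subgroup.mem_upperCentralSeries_succ_iff.1 ((Subgroup.upperCentralSeries P (n + 1)).inv_mem hd) e) s⁻¹
  simpa using this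

theorem a1_depth (hP : IsPGroup 2 P)
    (hN : ∀ g, g ∈ 𝐍(𝐂[y]) → g * y * g⁻¹ = y ∨ g * y * g⁻¹ = y * z) (n : ℕ) :
    ∀ d s : P, d ∈ Subgroup.upperCentralSeries P n → d ≠ 1 → s * y * s⁻¹ = y * d → y * d = d * y →
      z ∈ Subgroup.upperCentralSeries P n := by
  induction n with
  | zero => intro d s h d1; exact absurd (mem_bot.1 h) d1
  | succ n ih =>
    intro d s h d1 hs hd
    rcases a1_step hP hN d1 hs hd with rfl | ⟨e, -, h1, h2, h3⟩
    · exact h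
    · refine Subgroup.upperCentralSeries_mono P (Nat.le_succ n) (ih _ _ (a1_mem h e s) (fun h0 => h1 ?_) h2 h3)
      have : ⁅d⁻¹, e⁆ = s * (s⁻¹ * ⁅d⁻¹, e⁆ * s) * s⁻¹ := by group
      rw [this, h0]; group

theorem a1_eq (hP : IsPGroup 2 P)
    (hN : ∀ g, g ∈ 𝐍(𝐂[y]) → g * y * g⁻¹ = y ∨ g * y * g⁻¹ = y * z)
    (hQz : ∀ q, q * y = y * q → q * z = z * q)
    (hz : ∀ g u, g * y = y * g → u * y = y * u → g * u * g⁻¹ * u⁻¹ ≠ z) (n : ℕ) :
    ∀ d s : P, d ∈ Subgroup.upperCentralSeries P n → d ≠ 1 → s * y * s⁻¹ = y * d → y * d = d * y →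
      Commute s z → d = z := by
  induction n with
  | zero => intro d s h d1; exact absurd (mem_bot.1 h) d1
  | succ n ih =>
    intro d s h d1 hs hd hsz
    rcases a1_step hP hN d1 hs hd with h0 | ⟨e, he, h1, h2, h3⟩
    · exact h0
    · exfalso
      have h4 : ⁅d⁻¹, e⁆ = s * (s⁻¹ * ⁅d⁻¹, e⁆ * s) * s⁻¹ := by group
      have h5 := ih _ _ (a1_mem h e s) (fun h0 => h1 (by rw [h4, h0]; group)) h2 h3
        ((hsz.inv_left.mul_left (hQz e he)).mul_left hsz)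
      rw [h5, hsz.eq, mul_inv_cancel_right] at h4
      exact hz d⁻¹ e (Commute.inv_left (hd.symm : Commute d y)) he h4

theorem a1_dih (hP : IsPGroup 2 P) {a b : P} (a2 : a * a = 1) (b2 : b * b = 1)
    (hab : ¬ Commute a b) : ∃ e d : P, d ≠ 1 ∧ e * a * e⁻¹ = a * d ∧ e * b * e⁻¹ = b * d ∧
      a * d = d * a ∧ b * d = d * b ∧ ∀ c, Commute a c → Commute b c → Commute e c := by
  classical
  have ai : a⁻¹ = a := inv_eq_of_mul_eq_one_right a2
  have bi : b⁻¹ = b := inv_eq_of_mul_eq_one_right b2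
  have hex := hP (a * b)
  have h1 := Nat.find_spec hex
  have h2 : ∀ m, m < Nat.find hex → (a * b) ^ 2 ^ m ≠ 1 := fun m hm => Nat.find_min hex hm
  obtain ⟨n, hn⟩ : ∃ n, Nat.find hex = n + 2 := by
    refine ⟨Nat.find hex - 2, ?_⟩
    by_contra h
    have h3 : (a * b) ^ 2 = 1 := by
      have : Nat.find hex = 0 ∨ Nat.find hex = 1 := by omega
      rcases this with h | h <;> rw [h] at h1
      · rw [pow_zero, pow_one] at h1; rw [h1, one_pow]
      · simpa using h1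
    apply hab
    have : a * b = (a * b)⁻¹ := eq_inv_of_mul_eq_one_left (by rw [← pow_two, h3])
    rw [commute_iff_eq, this, mul_inv_rev, ai, bi]
  rw [hn] at h1 h2
  set e := (a * b) ^ 2 ^ n with he
  have e4 : e * e * (e * e) = 1 := by
    rw [← h1, pow_add 2 n 2, pow_mul, ← he, show 2 ^ 2 = 2 + 2 from rfl, pow_add, pow_two]
  have e2 : e * e ≠ 1 := by
    have := h2 (n + 1) (by omega)
    rwa [pow_succ, pow_mul, pow_two] at this
  have ia : a * e * a⁻¹ = e⁻¹ := by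
    rw [he, ← conj_pow, ← inv_pow]; congr 1
    rw [mul_inv_rev, ai, bi, ← mul_assoc, a2, one_mul]
  have ib : b * e * b⁻¹ = e⁻¹ := by
    rw [he, ← conj_pow, ← inv_pow]; congr 1
    rw [mul_inv_rev, ai, bi, mul_assoc, mul_assoc, b2, mul_one]
  have ee : (e * e)⁻¹ = e * e := inv_eq_of_mul_eq_one_right e4
  have key : ∀ c : P, c⁻¹ = c → c * e * c⁻¹ = e⁻¹ →
      e * c * e⁻¹ = c * (e * e) ∧ c * (e * e) = (e * e) * c := fun c ci ic => by
    have h3 : c * (e * e) * c⁻¹ = e * e := by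
      calc c * (e * e) * c⁻¹ = (c * e * c⁻¹) * (c * e * c⁻¹) := by group
        _ = (e * e)⁻¹ := by rw [ic]; group
        _ = _ := ee
    refine ⟨?_, by rw [← mul_inv_eq_iff_eq_mul, h3]⟩
    calc e * c * e⁻¹ = c * (c⁻¹ * e * c⁻¹⁻¹) * e⁻¹ := by group
      _ = c * (e * e)⁻¹ := by rw [ci, ic]; group
      _ = _ := by rw [ee]
  exact ⟨e, e * e, e2, (key a ai ia).1, (key b bi ib).1, (key a ai ia).2, (key b bi ib).2,
    fun c h3 h4 => (h3.mul_left h4).pow_left _⟩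

theorem a1_cor (hP : IsPGroup 2 P) (y2 : y * y = 1) (z2 : z * z = 1) (z1 : z ≠ 1)
    (hN : ∀ g, g ∈ 𝐍(𝐂[y]) → g * y * g⁻¹ = y ∨ g * y * g⁻¹ = y * z) (σ : MulAut P) :
    Commute y (σ z) := by
  classical
  have : Fact (Nat.Prime 2) := ⟨Nat.prime_two⟩
  have := hP.isNilpotent
  by_contra h
  obtain ⟨e, d, d1, h1, h2, h3, -, -⟩ := a1_dih hP y2 (by rw [← map_mul, z2, map_one]) h
  have hex : ∃ n, z ∈ Subgroup.upperCentralSeries P n :=
    ⟨_, by rw [Subgroup.upperCentralSeries_nilpotencyClass]; exact mem_top z⟩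
  have h4 := Nat.find_spec hex
  obtain ⟨n, hn⟩ : ∃ n, Nat.find hex = n + 1 := by
    refine ⟨Nat.find hex - 1, ?_⟩
    by_contra h0
    have : Nat.find hex = 0 := by omega
    rw [this] at h4
    exact z1 (mem_bot.1 h4)
  refine Nat.find_min hex (m := n) (by omega) (a1_depth hP hN n d e ?_ d1 h1 h3)
  rw [hn] at h4
  have h5 : σ z ∈ Subgroup.upperCentralSeries P (n + 1) :=
    (characteristic_iff_le_comap.1 inferInstance σ) h4
  have := a1_mem h5 e 1
  have e1 : d = 1⁻¹ * ⁅(σ z)⁻¹, e⁆ * 1 := by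
    rw [commutatorElement_def, inv_inv]
    calc d = (σ z)⁻¹ * (σ z * d) := by group
      _ = _ := by rw [← h2]; group
  rwa [e1]

theorem a1_abs (hP : IsPGroup 2 P) (φ : MulAut P) {r : ℕ} (hr : r.Prime) (hφ : φ ^ r = 1)
    (hf : ∀ g, φ g = g → g = 1) (y2 : y * y = 1) (z2 : z * z = 1) (z1 : z ≠ 1)
    (hQz : ∀ q, q * y = y * q → q * z = z * q)
    (hN : ∀ g, g ∈ 𝐍(𝐂[y]) → g * y * g⁻¹ = y ∨ g * y * g⁻¹ = y * z)
    (hz : ∀ g u, g * y = y * g → u * y = y * u → g * u * g⁻¹ * u⁻¹ ≠ z) {t : P}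
    (htz : t * z * t⁻¹ = z) (hv : t * y * t⁻¹ ∉ 𝐂[y]) : False := by
  have : Fact (Nat.Prime 2) := ⟨Nat.prime_two⟩
  have := hP.isNilpotent
  have top : ∀ d : P, d ∈ Subgroup.upperCentralSeries P (Group.nilpotencyClass P) := fun d => by
    rw [Subgroup.upperCentralSeries_nilpotencyClass]; exact mem_top d
  have yz : Commute y z := hQz y rfl
  have key : ∀ k, 0 < k → k < r → (φ ^ k) (t * y * t⁻¹) ∈ 𝐂[y] := fun k k0 kr => by
    set σ : MulAut P := φ ^ k * MulAut.conj t with hσ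
    have s1 : (φ ^ k) (t * y * t⁻¹) = σ y := by simp [hσ]
    have s2 : σ z = (φ ^ k) z := by simp [hσ, htz]
    rw [s1, mem_centralizer_singleton_iff]
    by_contra h
    obtain ⟨e, d, d1, h1, h2, h3, h4, h5⟩ := a1_dih hP y2 (b := σ y) (by rw [← map_mul, y2, map_one])
      (fun c => h c.symm)
    have c1 : Commute (σ y) z := by simpa using (a1_cor hP y2 z2 z1 hN σ⁻¹).map σ
    have c2 : Commute e z := h5 z yz c1
    have c3 : Commute e (σ z) := h5 _ (a1_cor hP y2 z2 z1 hN σ) (yz.map σ)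
    have e1 := a1_eq hP hN hQz hz _ d e (top d) d1 h1 h3 c2
    have e2 := a1_eq hP hN hQz hz _ (σ⁻¹ d) (σ⁻¹ e) (top _) (by simpa using d1)
      (by simpa using congrArg (σ⁻¹ : MulAut P) h2) (by simpa using congrArg (σ⁻¹ : MulAut P) h4)
      (by simpa using c3.map (σ⁻¹ : MulAut P))
    have e3 : (φ ^ k) z = z := by
      rw [← s2]
      calc σ z = σ (σ⁻¹ d) := by rw [e2]
        _ = z := by rw [← e1]; simp
    obtain ⟨m, hm⟩ := Nat.exists_mul_mod_eq_one_of_coprime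
      ((Nat.coprime_of_lt_prime k0.ne' kr hr).symm) hr.one_lt
    have e4 : ∀ j, ((φ ^ k) ^ j) z = z := fun j => by
      induction j with
      | zero => simp
      | succ j ih => rw [pow_succ, MulAut.mul_apply, e3, ih]
    have e5 := e4 m
    rw [← pow_mul, ← Nat.div_add_mod (k * m) r, pow_add, pow_mul, hφ, one_pow, one_mul, hm.2,
      pow_one] at e5
    exact z1 (hf z e5)
  have it : ∀ k, (⇑φ)^[k] = ⇑(φ ^ k) := fun k => by
    induction k with
    | zero => rfl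
    | succ k ih => rw [Function.iterate_succ, ih, pow_succ]; rfl
  have hn := MonoidHom.FixedPointFree.prod_pow_eq_one (φ := φ) hf (n := r)
    (by rw [it, hφ]; rfl) (t * y * t⁻¹)
  obtain ⟨m, rfl⟩ : ∃ m, r = m + 1 := ⟨r - 1, by have := hr.pos; omega⟩
  rw [List.range_succ_eq_map, List.map_cons, List.prod_cons, Function.iterate_zero_apply,
    mul_eq_one_iff_eq_inv] at hn
  refine hv (hn ▸ inv_mem (list_prod_mem fun g hg => ?_))
  simp only [List.map_map, List.mem_map, List.mem_range, Function.comp] at hg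
  obtain ⟨k, hk, rfl⟩ := hg
  rw [it]
  exact key _ (Nat.succ_pos k) (by omega)

end abs

variable {X : Type u} [Group X] [Finite X] {T : Subgroup X} {x y z t : X}

theorem a1 (hT : IsPGroup 2 T) (hp : (orderOf x).Prime) (hx : x ∈ 𝐍(T)) (hf : T ⊓ 𝐂[x] = ⊥)
    (hy : y ∈ T) (hzT : z ∈ T) (y2 : y * y = 1) (z2 : z * z = 1) (z1 : z ≠ 1)
    (hQz : ∀ q ∈ T ⊓ 𝐂[y], q * z = z * q)
    (hN : ∀ g ∈ T, g ∈ 𝐍(T ⊓ 𝐂[y]) → g * y * g⁻¹ = y ∨ g * y * g⁻¹ = y * z)
    (hz : ∀ g ∈ T ⊓ 𝐂[y], ∀ u ∈ T ⊓ 𝐂[y], g * u * g⁻¹ * u⁻¹ ≠ z) (ht : t ∈ T)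
    (htz : t * z * t⁻¹ = z) (hv : t * y * t⁻¹ ∉ 𝐂[y]) : False := by
  have mem : ∀ q : T, q * ⟨y, hy⟩ = ⟨y, hy⟩ * q → (q : X) ∈ T ⊓ 𝐂[y] := fun q h =>
    ⟨q.2, mem_centralizer_singleton_iff.2 (congrArg Subtype.val h)⟩
  refine a1_abs (y := ⟨y, hy⟩) (z := ⟨z, hzT⟩) (t := ⟨t, ht⟩) hT (T.normalizerMonoidHom ⟨x, hx⟩) hp
    ?_ (fun g hg => ?_) (Subtype.ext y2) (Subtype.ext z2) (fun h => z1 (congrArg Subtype.val h))
    (fun q h => Subtype.ext (hQz q (mem q h))) (fun g hg => ?_)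
    (fun g u h1 h2 h => hz g (mem g h1) u (mem u h2) (congrArg Subtype.val h)) (Subtype.ext htz)
    (fun h => hv (mem_centralizer_singleton_iff.2
      (congrArg Subtype.val (mem_centralizer_singleton_iff.1 h))))
  · rw [← map_pow]
    have : (⟨x, hx⟩ : 𝐍(T)) ^ orderOf x = 1 := Subtype.ext (pow_orderOf_eq_one x)
    rw [this, map_one]
  · have h1 : x * g * x⁻¹ = g := by simpa using congrArg Subtype.val hg
    have : (g : X) ∈ T ⊓ 𝐂[x] :=
      ⟨g.2, mem_centralizer_singleton_iff.2 (mul_inv_eq_iff_eq_mul.1 h1).symm⟩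
    rw [hf] at this
    exact Subtype.ext (mem_bot.1 this)
  · refine (hN g g.2 ?_).imp Subtype.ext Subtype.ext
    rw [mem_normalizer_iff] at hg ⊢
    intro a
    constructor
    · rintro ⟨ha, ha'⟩
      exact mem _ (mem_centralizer_singleton_iff.1 ((hg ⟨a, ha⟩).1 (mem_centralizer_singleton_iff.2
        (Subtype.ext (mem_centralizer_singleton_iff.1 ha')))))
    · rintro ⟨ha, ha'⟩
      have haT : a ∈ T := by
        have := T.mul_mem (T.mul_mem (T.inv_mem g.2) ha) g.2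
        simpa [mul_assoc] using this
      exact mem ⟨a, haT⟩ (mem_centralizer_singleton_iff.1 ((hg ⟨a, haT⟩).2
        (mem_centralizer_singleton_iff.2 (Subtype.ext (mem_centralizer_singleton_iff.1 ha')))))

end Cfsg.Agent.CE
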