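import Cfsg.Agent.Lib.OO.Defs

/-!
# The statement `CE`: a coprime operator of prime order with fixed points of odd order
-/

set_option autoImplicit false

namespace Cfsg.Agent.CE

open Subgroup Cfsg.Agent.OO

universe u

/-- a group with a coprime operator of prime order whose fixed-point subgroup has odd order is
solvable -/
def CE : Prop := ∀ (X : Type u) [Group X] [Finite X] (G : Subgroup X) (x : X),
  (orderOf x).Prime → x ∈ 𝐍(G) → (♯G).Coprime (orderOf x) → Odd ♯(G ⊓ 𝐂[x]) → Sol G

end Cfsg.Agent.CE
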