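import Cfsg.Agent.Lib.OO.BG1
import Cfsg.Agent.Lib.Transfer.ThompsonJ

/-!
# Quadratic offenders fixing exactly one point: the rank one structure
-/

set_option autoImplicit false
set_option linter.unusedSectionVars false

namespace Cfsg.Agent.CE

open Subgroup Cfsg.Agent.Coprime Cfsg.Agent.OO
open scoped Pointwise commutatorElement

universe u

variable {G : Type u} [Group G] [Finite G] {K W Z Q A : Subgroup G} {a g h s t v : G}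

/-- the data of the failure of factorization -/
structure FFD (K W Z Q A : Subgroup G) : Prop where
  hW : IsElementaryAbelian 2 W
  KW : K ≤ 𝐍(W)
  ZW : Z ≤ W
  WQ : W ≤ Q
  QW : Q ≤ 𝐂(W)
  QK : Q ≤ K
  KQ : K ≤ 𝐍(Q)
  AK : A ≤ K
  hA : IsElementaryAbelian 2 A
  AZ : A ≤ 𝐂(Z)
  quad : ⁅W, A⁆ ≤ A
  max : ∀ B ≤ K, IsElementaryAbelian 2 B → ♯B ≤ ♯A
  nAQ : ¬ A ≤ Q
  nKZ : ¬ K ≤ 𝐍(Z)
  p1 : ∀ k ∈ K, ∀ a ∈ K, a ^ 2 = 1 → a ∈ 𝐍(k •ᶜ Z) → a ∈ 𝐂(k •ᶜ Z)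
  hu : ∀ B ≤ K, IsElementaryAbelian 2 B → ♯A ≤ ♯B → ∀ g ∈ K, ∀ h ∈ K, g •ᶜ Z ≠ h •ᶜ Z →
    B ≤ 𝐂(g •ᶜ Z) → B ≤ 𝐂(h •ᶜ Z) → B ≤ Q

/-- a minimal pair -/
def FFMin (K Z A : Subgroup G) (s : G) : Prop :=
  s ∈ K ∧ s •ᶜ Z ≠ Z ∧ ∀ t ∈ K, t •ᶜ Z ≠ Z → ♯(A ⊔ s •ᶜ A : Subgroup G) ≤ ♯(A ⊔ t •ᶜ A : Subgroup G)

theorem ff_card_conj (g : G) (H : Subgroup G) : ♯(g •ᶜ H) = ♯H :=
  card_map_of_injective (MulAut.conj g).injective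

theorem FFMin.pair (hs : FFMin K Z A s) (hg : g ∈ K) (hh : h ∈ K) (hne : g •ᶜ Z ≠ h •ᶜ Z) :
    ♯(A ⊔ s •ᶜ A : Subgroup G) ≤ ♯(g •ᶜ A ⊔ h •ᶜ A : Subgroup G) := by
  have h1 := hs.2.2 (g⁻¹ * h) (mul_mem (inv_mem hg) hh) fun e => hne (by
    rw [← conj_conj, conj_eq_iff_eq_inv_conj, inv_inv] at e; exact e.symm)
  rwa [← ff_card_conj g (A ⊔ (g⁻¹ * h) •ᶜ A), conj_sup, conj_conj, mul_inv_cancel_left] at h1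

theorem FFMin.of_le (hs : FFMin K Z A s) (hg : g ∈ K) (hne : g •ᶜ Z ≠ Z)
    (hle : g •ᶜ A ≤ A ⊔ s •ᶜ A) : FFMin K Z A g ∧ A ⊔ g •ᶜ A = A ⊔ s •ᶜ A := by
  have e : A ⊔ g •ᶜ A = A ⊔ s •ᶜ A := eq_of_le_of_card_le (sup_le le_sup_left hle) (hs.2.2 g hg hne)
  exact ⟨⟨hg, hne, fun t ht h => e ▸ hs.2.2 t ht h⟩, e⟩

theorem FFMin.inj (hs : FFMin K Z A s) (hAK : A ≤ K) (ha : a ∈ A) (hn : a ∉ 𝐍(s •ᶜ Z))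
    (hv : v ∈ 𝐂(s •ᶜ A)) (hav : a * v * a⁻¹ ∈ 𝐂(s •ᶜ A)) : v ∈ 𝐂(A) := by
  have h1 := hs.pair hs.1 (mul_mem (inv_mem (hAK ha)) hs.1) fun e => hn (by
    rw [← conj_conj] at e
    exact (inv_mem_iff (H := 𝐍(s •ᶜ Z))).1 (mem_norm_of_conj_le e.ge))
  have h2 : s •ᶜ A ⊔ (a⁻¹ * s) •ᶜ A = A ⊔ s •ᶜ A := eq_of_le_of_card_le (sup_le le_sup_right (by
    rw [← conj_conj]; exact conj_le_of_mem (mem_sup_left (inv_mem ha)) le_sup_right)) h1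
  have h3 : v ∈ 𝐂(s •ᶜ A ⊔ (a⁻¹ * s) •ᶜ A) := by
    rw [cent_sup]
    refine ⟨hv, ?_⟩
    rw [← conj_conj, cent_conj]
    exact mem_conj.2 (by simpa using hav)
  exact cent_anti le_sup_left (h2 ▸ h3)

namespace FFD

variable (d : FFD K W Z Q A)
include d

theorem conj_not_le (hg : g ∈ K) : ¬ g •ᶜ A ≤ Q := fun e => d.nAQ (by
  rw [← conj_eq_of_mem_norm (d.KQ hg)] at e; exact conj_le_conj_iff.1 e)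

theorem ex_move (hg : g ∈ K) (hh : h ∈ K) (hne : g •ᶜ Z ≠ h •ᶜ Z) : ¬ g •ᶜ A ≤ 𝐂(h •ᶜ Z) :=
  fun e => d.conj_not_le hg (d.hu _ (conj_le_of_mem hg d.AK) (abelem_conj.2 d.hA)
    (ff_card_conj g A).ge g hg h hh hne (conj_le_cent_conj.2 d.AZ) e)

theorem exists_min : ∃ s, FFMin K Z A s ∧ s ∈ A ⊔ s •ᶜ A ∧ s⁻¹ = s := by
  obtain ⟨k, hk, hk'⟩ := SetLike.not_le_iff_exists.1 d.nKZ
  obtain ⟨t, ht, hm⟩ := Set.exists_min_image {t | t ∈ K ∧ t •ᶜ Z ≠ Z}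
    (fun t => ♯(A ⊔ t •ᶜ A : Subgroup G)) (Set.toFinite _)
    ⟨k, hk, fun e => hk' (mem_norm_of_conj_le e.le)⟩
  have hs : FFMin K Z A t := ⟨ht.1, ht.2, fun u hu h => hm u ⟨hu, h⟩⟩
  obtain ⟨a, ha, ha'⟩ := SetLike.not_le_iff_exists.1
    (d.ex_move ht.1 (one_mem K) (by simpa using ht.2))
  have haK : a ∈ K := conj_le_of_mem ht.1 d.AK ha
  have ha2 : a ^ 2 = 1 := (abelem_conj.2 d.hA).2 a ha
  have hne : a •ᶜ Z ≠ Z := fun e => ha' (d.p1 1 (one_mem K) a haK ha2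
    (by simpa using mem_norm_of_conj_le e.le))
  obtain ⟨h1, h2⟩ := hs.of_le haK hne (conj_le_of_mem (mem_sup_right ha) le_sup_left)
  exact ⟨a, h1, h2 ▸ mem_sup_right ha, inv_eq_of_mul_eq_one_right (by rw [← pow_two, ha2])⟩

theorem comm_mem (ha : a ∈ A) (hv : v ∈ W) : a * v * a⁻¹ * v⁻¹ ∈ W ⊓ A :=
  mem_inf.2 ⟨W.mul_mem (conj_mem_of_norm (d.KW (d.AK ha)) hv) (W.inv_mem hv), by
    have := A.inv_mem (d.quad (commutator_mem_commutator hv ha))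
    simpa [commutatorElement_def, mul_assoc] using this⟩

theorem WA_le : W ⊓ A ≤ W ⊓ 𝐂(A) := inf_le_inf_left _ (abelem_le_cent d.hA)

theorem conjC (hg : g ∈ K) : g •ᶜ (W ⊓ 𝐂(A)) = W ⊓ 𝐂(g •ᶜ A) := by
  rw [conj_inf, conj_eq_of_mem_norm (d.KW hg), cent_conj]

theorem A_norm {U : Subgroup G} (h1 : W ⊓ 𝐂(A) ≤ U) (h2 : U ≤ W) : A ≤ 𝐍(U) := fun a ha =>
  mem_norm_of_conj_mem fun v hv => by
    simpa using mul_mem (h1 (d.WA_le (d.comm_mem ha (h2 hv)))) hv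

theorem X_norm (hs : s ∈ K) :
    A ⊔ s •ᶜ A ≤ 𝐍(W ⊓ 𝐂(A) ⊔ W ⊓ 𝐂(s •ᶜ A)) := by
  refine sup_le (d.A_norm le_sup_left (sup_le inf_le_left inf_le_left)) ?_
  rw [conj_le_iff_le_inv_conj, ← norm_conj]
  refine d.A_norm ?_ (conj_le_of_mem_norm (d.KW (inv_mem hs)) (sup_le inf_le_left inf_le_left))
  rw [le_conj_iff_inv_conj_le, inv_inv, d.conjC hs]; exact le_sup_right

theorem card_sup (hs : s ∈ K) : ♯(W ⊓ 𝐂(A) ⊔ W ⊓ 𝐂(s •ᶜ A) : Subgroup G) *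
    ♯(W ⊓ 𝐂(A ⊔ s •ᶜ A) : Subgroup G) = ♯(W ⊓ 𝐂(A) : Subgroup G) * ♯(W ⊓ 𝐂(A) : Subgroup G) := by
  rw [cent_sup, inf_inf_distrib_left, card_sup_mul_card_inf (Or.inl
    (inf_le_left.trans (le_norm_of_ab (abelem_ab d.hW) inf_le_left))), ← d.conjC hs, ff_card_conj]

/-- the commutator map -/
def cm (hv : v ∈ W) : A →* G where
  toFun a := a * v * (a : G)⁻¹ * v⁻¹
  map_one' := by simp
  map_mul' a b := by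
    have h1 := mem_cent_iff.1 (d.WA_le (d.comm_mem b.2 hv)).2 a a.2
    have h2 := mem_cent_iff.1 (abelem_le_cent d.hA (d.comm_mem b.2 hv).2) _ (d.comm_mem a.2 hv).2
    rw [h2, coe_mul]
    calc (a * b * v * ((a : G) * b)⁻¹ * v⁻¹ : G) = (a * (b * v * (b : G)⁻¹ * v⁻¹)) * (v * (a : G)⁻¹ * v⁻¹) := by group
      _ = _ := by rw [h1]; group

theorem cm_card (hv : v ∈ W) : ♯(d.cm hv).range * ♯(A ⊓ 𝐂[v] : Subgroup G) = ♯A := by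
  have h1 : (d.cm hv).ker = 𝐂[v].subgroupOf A := by
    ext a
    rw [MonoidHom.mem_ker, mem_subgroupOf, mem_cent1_iff_conj]
    exact mul_inv_eq_one
  rw [← (d.cm hv).ker.card_mul_index, index_ker, h1, Core.card_subgroupOf, inf_comm, mul_comm]

theorem cm_le (hv : v ∈ W) : (d.cm hv).range ≤ W ⊓ 𝐂(A) := by
  rintro _ ⟨a, rfl⟩; exact d.WA_le (d.comm_mem a.2 hv)

theorem B_cent (hs : FFMin K Z A s) (hg : g ∈ A ⊔ s •ᶜ A) : A ⊓ 𝐍(s •ᶜ Z) ≤ 𝐂(g •ᶜ Z) := by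
  intro b hb
  have hgK : g ∈ K := sup_le d.AK (conj_le_of_mem hs.1 d.AK) hg
  by_cases hne : g •ᶜ Z = Z
  · rw [hne]; exact d.AZ hb.1
  refine d.p1 g hgK b (d.AK hb.1) (d.hA.2 b hb.1) ?_
  by_contra hn
  obtain ⟨h1, h2⟩ := hs.of_le hgK hne (conj_le_of_mem hg le_sup_left)
  have e : W ⊓ 𝐂(A) ⊔ W ⊓ 𝐂(g •ᶜ A) = W ⊓ 𝐂(A) ⊔ W ⊓ 𝐂(s •ᶜ A) := by
    refine eq_of_le_of_card_le (sup_le le_sup_left ?_) (le_of_eq ?_)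
    · rw [← d.conjC hgK]; exact conj_le_of_mem_norm (d.X_norm hs.1 hg) le_sup_left
    · have c1 := d.card_sup hgK
      rw [h2, ← d.card_sup hs.1] at c1
      exact (Nat.eq_of_mul_eq_mul_right (card_pos' _) c1).symm
  refine d.ex_move (one_mem K) hs.1 (by simpa using hs.2.1.symm) ?_
  rw [map_one, one_smul]
  refine le_cent_symm fun z hz => ?_
  have hzW : z ∈ W := conj_le_of_mem_norm (d.KW hs.1) d.ZW hz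
  have hz2 : z ∈ W ⊓ 𝐂(A) ⊔ W ⊓ 𝐂(g •ᶜ A) :=
    e ▸ mem_sup_right ⟨hzW, le_cent_symm (conj_le_cent_conj.2 d.AZ) hz⟩
  obtain ⟨c, hc, c', hc', rfl⟩ := (mem_sup_norm_right (inf_le_left.trans
    (le_norm_of_ab (abelem_ab d.hW) inf_le_left))).1 hz2
  have hb1 := mem_cent_iff_conj.1 (d.p1 s hs.1 b (d.AK hb.1) (d.hA.2 b hb.1) hb.2) _ hz
  have hb2 : b * c = c * b := mem_cent_iff.1 hc.2 b hb.1
  have hb3 : b * c' * b⁻¹ = c' := by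
    apply mul_left_cancel (a := c)
    rw [← hb1]
    calc c * (b * c' * b⁻¹) = (c * b) * c' * b⁻¹ := by group
      _ = _ := by rw [← hb2]; group
  exact mul_mem hc.2 (h1.inj d.AK hb.1 hn hc'.2 (hb3.symm ▸ hc'.2))

theorem ex_z (hs : FFMin K Z A s) : ∃ z ∈ s •ᶜ Z, z ∉ 𝐂(A) := by
  by_contra hn
  push Not at hn
  refine d.ex_move (one_mem K) hs.1 (by simpa using hs.2.1.symm) ?_
  rw [map_one, one_smul]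
  exact le_cent_symm hn

theorem key (hs : FFMin K Z A s) (hsX : s ∈ A ⊔ s •ᶜ A) :
    A ⊓ 𝐍(s •ᶜ Z) ≤ Q ∧ ♯A ≤ ♯((A ⊓ Q) ⊔ W : Subgroup G) ∧
      W = W ⊓ 𝐂(A) ⊔ W ⊓ 𝐂(s •ᶜ A) := by
  have hXK : A ⊔ s •ᶜ A ≤ K := sup_le d.AK (conj_le_of_mem hs.1 d.AK)
  set B := A ⊓ 𝐍(s •ᶜ Z) with hB
  set V : Subgroup G := ⨆ g : (A ⊔ s •ᶜ A : Subgroup G), (g : G) •ᶜ Z with hV
  have hle : ∀ g ∈ A ⊔ s •ᶜ A, g •ᶜ Z ≤ V := fun g hg =>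
    le_iSup (fun g : (A ⊔ s •ᶜ A : Subgroup G) => (g : G) •ᶜ Z) ⟨g, hg⟩
  have hVW : V ≤ W := iSup_le fun g => conj_le_of_mem_norm (d.KW (hXK g.2)) d.ZW
  have hVn : ∀ g ∈ A ⊔ s •ᶜ A, g •ᶜ V ≤ V := fun g hg => by
    rw [conj_le_iff_le_inv_conj]
    exact iSup_le fun k => by
      rw [← conj_le_iff_le_inv_conj, conj_conj]; exact hle _ (mul_mem hg k.2)
  have hBV : B ≤ 𝐂(V) := le_cent_symm (iSup_le fun g => le_cent_symm (d.B_cent hs g.2))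
  have hVe := abelem_of_le d.hW hVW
  have hE := abelem_sup (abelem_of_le d.hA (inf_le_left : B ≤ A)) hVe hBV
  have hEK : B ⊔ V ≤ K := sup_le (inf_le_left.trans d.AK) (hVW.trans (d.WQ.trans d.QK))
  obtain ⟨z, hz, hzA⟩ := d.ex_z hs
  have hzW : z ∈ W := conj_le_of_mem_norm (d.KW hs.1) d.ZW hz
  have hz2 : z ∈ 𝐂(s •ᶜ A) := le_cent_symm (conj_le_cent_conj.2 d.AZ) hz
  have c1 := d.cm_card hzW
  have c2 : ♯(A ⊓ 𝐂[z] : Subgroup G) ≤ ♯B := card_le fun a ha => ⟨ha.1, by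
    by_contra hn
    exact hzA (hs.inj d.AK ha.1 hn hz2 ((mem_cent1_iff_conj.1 ha.2).symm ▸ hz2))⟩
  have hFV : (d.cm hzW).range ≤ V := by
    rintro _ ⟨a, rfl⟩
    exact V.mul_mem (hVn a (mem_sup_left a.2) (conj_mem_conj (hle s hsX hz))) (V.inv_mem (hle s hsX hz))
  have hD : s •ᶜ (B ⊓ V) ≤ V ⊓ 𝐂(s •ᶜ A) := le_inf ((conj_mono s inf_le_right).trans (hVn s hsX))
    (conj_le_cent_conj.2 (inf_le_left.trans (inf_le_left.trans (abelem_le_cent d.hA))))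
  have hF : (d.cm hzW).range ⊓ s •ᶜ (B ⊓ V) = ⊥ := by
    rw [eq_bot_iff]
    rintro _ ⟨⟨a, rfl⟩, h2⟩
    have h3 : a * z * (a : G)⁻¹ ∈ 𝐂(s •ᶜ A) := by simpa [cm] using mul_mem (hD h2).2 hz2
    by_cases hn : (a : G) ∈ 𝐍(s •ᶜ Z)
    · exact mul_inv_eq_one.2 (mem_cent_iff_conj.1
        (d.p1 s hs.1 a (d.AK a.2) (d.hA.2 a a.2) hn) z hz)
    · exact absurd (hs.inj d.AK a.2 hn hz2 h3) hzA
  have c3 := card_le (sup_le hFV (hD.trans inf_le_left))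
  rw [card_sup_of_inf_eq_bot (Or.inl (hFV.trans (le_norm_of_ab (abelem_ab hVe)
    (hD.trans inf_le_left)))) hF, ff_card_conj] at c3
  have c4 := card_sup_mul_card_inf (Or.inl (le_norm_of_le_cent hBV))
  have c5 : ♯A ≤ ♯(B ⊔ V : Subgroup G) := by
    refine Nat.le_of_mul_le_mul_right ?_ (card_pos' (B ⊓ V))
    rw [c4, ← c1]
    calc _ ≤ ♯(d.cm hzW).range * ♯B * ♯(B ⊓ V : Subgroup G) := by gcongr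
      _ = ♯B * (♯(d.cm hzW).range * ♯(B ⊓ V : Subgroup G)) := by ring
      _ ≤ _ := by gcongr
  have hVc : V ≤ 𝐂(W) := hVW.trans (abelem_le_cent d.hW)
  have hEQ : B ⊔ V ≤ Q := d.hu _ hEK hE c5 1 (one_mem K) s hs.1 (by simpa using hs.2.1.symm)
    (sup_le (d.B_cent hs (one_mem _)) (hVc.trans (cent_anti ((hle 1 (one_mem _)).trans hVW))))
    (sup_le (d.B_cent hs hsX) (hVc.trans (cent_anti ((hle s hsX).trans hVW))))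
  have hWE : W ≤ B ⊔ V := by
    have e := eq_of_le_of_card_le (le_sup_left : B ⊔ V ≤ B ⊔ V ⊔ W) ((d.max _ (sup_le hEK
      (d.WQ.trans d.QK)) (abelem_sup hE d.hW (hEQ.trans d.QW))).trans c5)
    exact e ▸ le_sup_right
  refine ⟨le_sup_left.trans hEQ, c5.trans (card_le (sup_le_sup (le_inf inf_le_left
    (le_sup_left.trans hEQ)) hVW)), le_antisymm (fun w hw => ?_) (sup_le inf_le_left inf_le_left)⟩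
  obtain ⟨b, hb, v, hv, rfl⟩ := (mem_sup_norm_right (le_norm_of_le_cent hBV)).1 (hWE hw)
  refine mul_mem (mem_sup_left (d.WA_le ⟨by simpa using W.mul_mem hw (W.inv_mem (hVW hv)), hb.1⟩)) ?_
  refine (iSup_le fun g => conj_le_of_mem_norm (d.X_norm hs.1 g.2) ?_ : V ≤ _) hv
  exact (le_inf d.ZW (le_cent_symm d.AZ)).trans le_sup_left

theorem C_le : W ⊓ 𝐂(A) ≤ A := by
  have hc : A ≤ 𝐂(W ⊓ 𝐂(A)) := le_cent_symm inf_le_right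
  have e := eq_of_le_of_card_le (le_sup_left : A ≤ A ⊔ W ⊓ 𝐂(A)) (d.max _ (sup_le d.AK
    (inf_le_left.trans (d.WQ.trans d.QK))) (abelem_sup d.hA (abelem_of_le d.hW inf_le_left) hc))
  exact le_sup_right.trans e.ge

theorem fix (hs : FFMin K Z A s) (hsX : s ∈ A ⊔ s •ᶜ A) (ha : a ∈ A) (haQ : a ∉ Q) :
    W ⊓ 𝐂[a] ≤ W ⊓ 𝐂(A) := fun w hw => by
  obtain ⟨h1, -, h3⟩ := d.key hs hsX
  obtain ⟨c, hc, c', hc', rfl⟩ := (mem_sup_norm_right (inf_le_left.trans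
    (le_norm_of_ab (abelem_ab d.hW) inf_le_left))).1 (h3.le hw.1)
  have hb1 := mem_cent1_iff_conj.1 (mem_cent1_comm.1 hw.2)
  have hb2 : a * c = c * a := mem_cent_iff.1 hc.2 a ha
  have hb3 : a * c' * a⁻¹ = c' := by
    apply mul_left_cancel (a := c)
    rw [← hb1]
    calc c * (a * c' * a⁻¹) = (c * a) * c' * a⁻¹ := by group
      _ = _ := by rw [← hb2]; group
  exact ⟨hw.1, mul_mem hc.2 (hs.inj d.AK ha (fun hn => haQ (h1 ⟨ha, hn⟩)) hc'.2 (hb3.symm ▸ hc'.2))⟩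

theorem cards (hs : FFMin K Z A s) (hsX : s ∈ A ⊔ s •ᶜ A) :
    ♯((A ⊓ Q) ⊔ W : Subgroup G) = ♯A ∧
      ♯W * ♯(A ⊓ Q : Subgroup G) = ♯A * ♯(W ⊓ 𝐂(A) : Subgroup G) := by
  have hc : A ⊓ Q ≤ 𝐂(W) := inf_le_right.trans d.QW
  have e := le_antisymm (d.max _ (sup_le (inf_le_left.trans d.AK) (d.WQ.trans d.QK))
    (abelem_sup (abelem_of_le d.hA inf_le_left) d.hW hc)) (d.key hs hsX).2.1
  refine ⟨e, ?_⟩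
  have e2 : A ⊓ Q ⊓ W = W ⊓ 𝐂(A) := le_antisymm (fun x hx => d.WA_le ⟨hx.2, hx.1.1⟩)
    (le_inf (le_inf d.C_le (inf_le_left.trans d.WQ)) inf_le_left)
  rw [mul_comm, ← card_sup_mul_card_inf (Or.inl (le_norm_of_le_cent hc)), e, e2]

theorem cover (hs : FFMin K Z A s) (hsX : s ∈ A ⊔ s •ᶜ A) (hv : v ∈ W ⊓ 𝐂(s •ᶜ A))
    (hvA : v ∉ 𝐂(A)) {c : G} (hc : c ∈ W ⊓ 𝐂(A)) :
    ∃ a ∈ A, a * v * a⁻¹ * (c * v)⁻¹ ∈ W ⊓ 𝐂(A ⊔ s •ᶜ A) := by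
  obtain ⟨h1, -, h3⟩ := d.key hs hsX
  have hC : W ⊓ 𝐂(A ⊔ s •ᶜ A) ≤ W ⊓ 𝐂(A) := inf_le_inf_left _ (cent_anti le_sup_left)
  have e1 : A ⊓ 𝐂[v] = A ⊓ Q := le_antisymm (fun a ha => ⟨ha.1, by
    by_contra hn
    exact hvA (d.fix hs hsX ha.1 hn ⟨hv.1, mem_cent1_comm.1 ha.2⟩).2⟩)
    (inf_le_inf_left _ (d.QW.trans (cent_le_cent1 hv.1)))
  have hF : (d.cm hv.1).range ⊓ (W ⊓ 𝐂(A ⊔ s •ᶜ A)) = ⊥ := by
    rw [eq_bot_iff]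
    rintro _ ⟨⟨a, rfl⟩, h2⟩
    have h4 : a * v * (a : G)⁻¹ ∈ 𝐂(s •ᶜ A) := by
      simpa [cm] using mul_mem (cent_anti le_sup_right h2.2) hv.2
    by_cases hn : (a : G) ∈ 𝐍(s •ᶜ Z)
    · exact mul_inv_eq_one.2 (mem_cent_iff_conj.1 (d.QW (h1 ⟨a.2, hn⟩)) v hv.1)
    · exact absurd (hs.inj d.AK a.2 hn hv.2 h4) hvA
  have hn := ((d.cm_le hv.1).trans inf_le_left).trans (le_norm_of_ab (abelem_ab d.hW)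
    (inf_le_left : W ⊓ 𝐂(A ⊔ s •ᶜ A) ≤ W))
  have c1 := d.cm_card hv.1
  have c2 := (d.cards hs hsX).2
  have c3 := d.card_sup hs.1
  rw [← h3] at c3
  rw [e1] at c1
  have e2 := eq_of_le_of_card_le (sup_le (d.cm_le hv.1) hC) (by
    rw [card_sup_of_inf_eq_bot (Or.inl hn) hF]
    have c4 : ♯W = ♯(d.cm hv.1).range * ♯(W ⊓ 𝐂(A) : Subgroup G) :=
      Nat.eq_of_mul_eq_mul_right (card_pos' (A ⊓ Q)) (by rw [c2, ← c1]; ring)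
    refine le_of_eq (Nat.eq_of_mul_eq_mul_right (card_pos' (W ⊓ 𝐂(A))) ?_)
    rw [← c3, c4]; ring)
  obtain ⟨_, ⟨a, rfl⟩, e, he, rfl⟩ := (mem_sup_norm_right hn).1 (e2.ge hc)
  refine ⟨a, a.2, ?_⟩
  have h5 := mem_cent_iff.1 (abelem_le_cent d.hW he.1) _ (d.cm_le hv.1 ⟨a, rfl⟩).1
  have : (a : G) * v * (a : G)⁻¹ * (d.cm hv.1 a * e * v)⁻¹ = e⁻¹ := by
    rw [h5]; simp only [cm, MonoidHom.coe_mk, OneHom.coe_mk]; group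
  exact this ▸ inv_mem he

theorem cover' (hs : FFMin K Z A s) (hsX : s ∈ A ⊔ s •ᶜ A) (hs2 : s⁻¹ = s) (hv : v ∈ W ⊓ 𝐂(A))
    (hvA : v ∉ 𝐂(s •ᶜ A)) {c : G} (hc : c ∈ W ⊓ 𝐂(s •ᶜ A)) :
    ∃ a ∈ A ⊔ s •ᶜ A, a * v * a⁻¹ * (c * v)⁻¹ ∈ W ⊓ 𝐂(A ⊔ s •ᶜ A) := by
  have h1 : s * v * s⁻¹ ∈ W ⊓ 𝐂(s •ᶜ A) := d.conjC hs.1 ▸ conj_mem_conj hv
  have h2 : s * c * s⁻¹ ∈ W ⊓ 𝐂(A) := by
    rw [← d.conjC hs.1, mem_conj] at hc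
    rwa [hs2] at hc ⊢
  obtain ⟨a, ha, h3⟩ := d.cover hs hsX h1 (fun e => hvA (by
    rw [cent_conj, mem_conj]; rwa [hs2] at e ⊢)) h2
  refine ⟨s⁻¹ * a * s, mul_mem (mul_mem (inv_mem hsX) (mem_sup_left ha)) hsX, ?_⟩
  have h4 := mem_cent_iff.1 h3.2 s hsX
  have : s⁻¹ * a * s * v * (s⁻¹ * a * s)⁻¹ * (c * v)⁻¹ =
      s⁻¹ * ((a * (s * v * s⁻¹) * a⁻¹ * (s * c * s⁻¹ * (s * v * s⁻¹))⁻¹) * s) := by group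
  rw [this, ← h4, inv_mul_cancel_left]
  exact h3

theorem trans (hs : FFMin K Z A s) (hsX : s ∈ A ⊔ s •ᶜ A) (hs2 : s⁻¹ = s) {c c' : G}
    (hc : c ∈ W ⊓ 𝐂(A)) (hc' : c' ∈ W ⊓ 𝐂(A)) (hn : c ∉ 𝐂(s •ᶜ A)) (hn' : c' ∉ 𝐂(s •ᶜ A)) :
    ∃ g ∈ A ⊔ s •ᶜ A, g ∈ 𝐍(Z) ∧ g * c * g⁻¹ * c'⁻¹ ∈ W ⊓ 𝐂(A ⊔ s •ᶜ A) := by
  obtain ⟨z, hz, hzA⟩ := d.ex_z hs
  have hz' : z ∈ W ⊓ 𝐂(s •ᶜ A) := ⟨conj_le_of_mem_norm (d.KW hs.1) d.ZW hz,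
    le_cent_symm (conj_le_cent_conj.2 d.AZ) hz⟩
  let X := A ⊔ s •ᶜ A
  let r : G → G → Prop := fun u w => ∃ g ∈ X, g * u * g⁻¹ * w⁻¹ ∈ W ⊓ 𝐂(X)
  have rt : ∀ u v w, r u v → r v w → r u w := by
    rintro u v w ⟨g, hg, h1⟩ ⟨k, hk, h2⟩
    refine ⟨k * g, mul_mem hk hg, ?_⟩
    have h3 := mem_cent_iff.1 h1.2 k hk
    have : k * g * u * (k * g)⁻¹ * w⁻¹ = (k * (g * u * g⁻¹ * v⁻¹)) * k⁻¹ * (k * v * k⁻¹ * w⁻¹) := by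
      group
    rw [this, h3, mul_inv_cancel_right]
    exact mul_mem h1 h2
  have rs : ∀ u v, r u v → r v u := by
    rintro u v ⟨g, hg, h1⟩
    refine ⟨g⁻¹, inv_mem hg, ?_⟩
    have h3 := mem_cent_iff.1 (inv_mem h1).2 g hg
    have : g⁻¹ * v * g⁻¹⁻¹ * u⁻¹ = g⁻¹ * ((g * u * g⁻¹ * v⁻¹)⁻¹ * g) := by group
    rw [this, ← h3, inv_mul_cancel_left]
    exact inv_mem h1
  have hw : ∀ u ∈ W, ∀ w ∈ W, u * w = w * u := fun u hu w hw =>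
    mem_cent_iff.1 (abelem_le_cent d.hW hw) u hu
  have r0 : ∀ u ∈ W ⊓ 𝐂(A), r z (u * z) := fun u hu =>
    (d.cover hs hsX hz' hzA hu).imp fun a ha => ⟨mem_sup_left ha.1, ha.2⟩
  have r1 : ∀ u ∈ W ⊓ 𝐂(A), u ∉ 𝐂(s •ᶜ A) → r u z := fun u hu hu' =>
    rt _ _ _ (d.cover' hs hsX hs2 hu hu' hz') (hw u hu.1 z hz'.1 ▸ rs _ _ (r0 u hu))
  obtain ⟨g, hg, h1⟩ := rt _ _ _ (r1 c hc hn) (rs _ _ (r1 c' hc' hn'))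
  refine ⟨g, hg, ?_, h1⟩
  by_contra hgn
  have hgK : g ∈ K := sup_le d.AK (conj_le_of_mem hs.1 d.AK) hg
  obtain ⟨-, h2⟩ := hs.of_le hgK (fun e => hgn (mem_norm_of_conj_le e.le))
    (conj_le_of_mem hg le_sup_left)
  have h3 : g * c * g⁻¹ ∈ 𝐂(X) := by
    change _ ∈ 𝐂(A ⊔ s •ᶜ A)
    rw [← h2, cent_sup]
    exact ⟨by simpa using mul_mem (cent_anti le_sup_left h1.2) hc'.2,
      cent_conj g A ▸ conj_mem_conj hc.2⟩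
  have h4 : c' ∈ 𝐂(X) := by simpa [mul_assoc] using (𝐂(X)).mul_mem ((𝐂(X)).inv_mem h1.2) h3
  exact hn' (cent_anti le_sup_right h4)

/-- the rank one structure -/
theorem main : ∃ s ∈ K, s •ᶜ Z ≠ Z ∧ W = W ⊓ 𝐂(A) ⊔ s •ᶜ (W ⊓ 𝐂(A)) ∧
    (∀ a ∈ A, a ∉ Q → W ⊓ 𝐂[a] ≤ W ⊓ 𝐂(A)) ∧ ♯((A ⊓ Q) ⊔ W : Subgroup G) = ♯A ∧
    ♯W * ♯(A ⊓ Q : Subgroup G) = ♯A * ♯(W ⊓ 𝐂(A) : Subgroup G) ∧
    Z ≤ W ⊓ 𝐂(A) ∧ ¬ Z ≤ s •ᶜ (W ⊓ 𝐂(A)) ∧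
    ∀ c ∈ W ⊓ 𝐂(A), ∀ c' ∈ W ⊓ 𝐂(A), c ∉ s •ᶜ (W ⊓ 𝐂(A)) → c' ∉ s •ᶜ (W ⊓ 𝐂(A)) →
      ∃ g ∈ K ⊓ 𝐍(Z) ⊓ 𝐂(W ⊓ 𝐂(A) ⊓ s •ᶜ (W ⊓ 𝐂(A))),
        g * c * g⁻¹ * c'⁻¹ ∈ W ⊓ 𝐂(A) ⊓ s •ᶜ (W ⊓ 𝐂(A)) := by
  obtain ⟨s, hs, hsX, hs2⟩ := d.exists_min
  have e : W ⊓ 𝐂(A) ⊓ (W ⊓ 𝐂(s •ᶜ A)) = W ⊓ 𝐂(A ⊔ s •ᶜ A) := by
    rw [cent_sup, inf_inf_distrib_left W]
  refine ⟨s, hs.1, hs.2.1, ?_⟩
  rw [d.conjC hs.1, e]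
  refine ⟨(d.key hs hsX).2.2, fun a ha h => d.fix hs hsX ha h, (d.cards hs hsX).1,
    (d.cards hs hsX).2, le_inf d.ZW (le_cent_symm d.AZ), fun h => d.ex_move hs.1 (one_mem K)
      (by simpa using hs.2.1) (by simpa using le_cent_symm (h.trans inf_le_right)),
    fun c hc c' hc' h h' => ?_⟩
  obtain ⟨g, hg, h1, h2⟩ := d.trans hs hsX hs2 hc hc' (fun e => h ⟨hc.1, e⟩) fun e => h' ⟨hc'.1, e⟩
  exact ⟨g, ⟨⟨sup_le d.AK (conj_le_of_mem hs.1 d.AK) hg, h1⟩, le_cent_symm inf_le_right hg⟩, h2⟩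

end FFD

end Cfsg.Agent.CE
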